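import Cfsg.Agent.CosetEnum.Fi22.Main
import Cfsg.Agent.CosetEnum.Rewrite
import Cfsg.Prelude.Def_Classical
import Cfsg.Agent.S0292

/-!
The presented `O₇(3)` is `PΩ₇(3)` (owner: helper28).
-/

set_option autoImplicit false
set_option maxRecDepth 1000000

namespace Cfsg.Agent.CosetEnum.Fi22

open Cfsg Cfsg.Agent.CosetEnum
open scoped Matrix

/-- the index type of the form -/
abbrev I7 : Type := Unit ⊕ (Fin 3 ⊕ Fin 3)

/-- the polar form with `r`, as a function of the other vector -/
def bil (v r : I7 → ZMod 3) : ZMod 3 :=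
  2 * v (.inl ()) * r (.inl ()) + (v (.inr (.inl 0)) * r (.inr (.inr 0)) + v (.inr (.inl 1)) * r (.inr (.inr 1)) +
    v (.inr (.inl 2)) * r (.inr (.inr 2)) + v (.inr (.inr 0)) * r (.inr (.inl 0)) +
    v (.inr (.inr 1)) * r (.inr (.inl 1)) + v (.inr (.inr 2)) * r (.inr (.inl 2)))

/-- the form -/
abbrev Q7 : (I7 → ZMod 3) → ZMod 3 := quadFormOdd 3 (ZMod 3)

theorem Q7_eq (v : I7 → ZMod 3) : Q7 v = v (.inl ()) ^ 2 + (v (.inr (.inl 0)) * v (.inr (.inr 0)) +
    v (.inr (.inl 1)) * v (.inr (.inr 1)) + v (.inr (.inl 2)) * v (.inr (.inr 2))) := by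
  simp [quadFormOdd, Fin.sum_univ_three]

/-- minus the reflection in `r`, for `Q r = -1` -/
def nrefl (r : I7 → ZMod 3) : Matrix I7 I7 (ZMod 3) :=
  Matrix.of fun i j => - (if i = j then 1 else 0) - r i * bil (Pi.single j 1) r

theorem bil_sum (v r : I7 → ZMod 3) : ∑ j, bil (Pi.single j 1) r * v j = bil v r := by
  simp only [Fintype.sum_sum_type, Fin.sum_univ_three, Finset.univ_unique, Finset.sum_singleton, bil, Pi.single_apply]
  simp
  ring

theorem nrefl_mulVec (r v : I7 → ZMod 3) : nrefl r *ᵥ v = fun i => - v i - bil v r * r i := by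
  funext i
  have h1 : (nrefl r *ᵥ v) i = ∑ j, (- (if i = j then 1 else 0) - r i * bil (Pi.single j 1) r) * v j := rfl
  rw [h1]
  have h2 : ∀ j, (- (if i = j then (1 : ZMod 3) else 0) - r i * bil (Pi.single j 1) r) * v j =
      - (if i = j then v j else 0) - r i * (bil (Pi.single j 1) r * v j) := by
    intro j
    split_ifs <;> ring
  simp only [h2]
  rw [Finset.sum_sub_distrib, Finset.sum_neg_distrib, Finset.sum_ite_eq, if_pos (Finset.mem_univ _), ← Finset.mul_sum,
    bil_sum]
  ring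

theorem three_zero : (3 : ZMod 3) = 0 := by decide

theorem nrefl_sq (r : I7 → ZMod 3) (hr : Q7 r = -1) : nrefl r * nrefl r = 1 := by
  have hrr : bil r r = -2 := by
    rw [Q7_eq] at hr
    have : bil r r = 2 * (r (.inl ()) ^ 2 + (r (.inr (.inl 0)) * r (.inr (.inr 0)) +
      r (.inr (.inl 1)) * r (.inr (.inr 1)) + r (.inr (.inl 2)) * r (.inr (.inr 2)))) := by
      simp only [bil]
      ring
    rw [this, hr]
    ring
  apply Matrix.ext_of_mulVec_single
  intro j
  rw [← Matrix.mulVec_mulVec, nrefl_mulVec, nrefl_mulVec, Matrix.one_mulVec]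
  funext i
  generalize (Pi.single j (1 : ZMod 3) : I7 → ZMod 3) = v
  have h1 : bil (fun i => - v i - bil v r * r i) r = - bil v r - bil v r * bil r r := by
    simp only [bil]
    ring
  simp only []
  rw [h1, hrr]
  ring

theorem nrefl_Q (r v : I7 → ZMod 3) (hr : Q7 r = -1) : Q7 (nrefl r *ᵥ v) = Q7 v := by
  rw [nrefl_mulVec]
  rw [Q7_eq] at hr
  rw [Q7_eq, Q7_eq]
  generalize hb : bil v r = c
  have h1 : (- v (.inl ()) - c * r (.inl ())) ^ 2 + ((- v (.inr (.inl 0)) - c * r (.inr (.inl 0))) *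
      (- v (.inr (.inr 0)) - c * r (.inr (.inr 0))) + (- v (.inr (.inl 1)) - c * r (.inr (.inl 1))) *
      (- v (.inr (.inr 1)) - c * r (.inr (.inr 1))) + (- v (.inr (.inl 2)) - c * r (.inr (.inl 2))) *
      (- v (.inr (.inr 2)) - c * r (.inr (.inr 2)))) =
      (v (.inl ()) ^ 2 + (v (.inr (.inl 0)) * v (.inr (.inr 0)) +
        v (.inr (.inl 1)) * v (.inr (.inr 1)) + v (.inr (.inl 2)) * v (.inr (.inr 2)))) + c * bil v r +
      c ^ 2 * (r (.inl ()) ^ 2 + (r (.inr (.inl 0)) * r (.inr (.inr 0)) +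
        r (.inr (.inl 1)) * r (.inr (.inr 1)) + r (.inr (.inl 2)) * r (.inr (.inr 2)))) := by
    simp only [bil]
    ring
  rw [h1, hr, hb]
  ring

/-- the isometry -/
def nr (r : I7 → ZMod 3) (hr : Q7 r = -1) : isometryGroup (ZMod 3) Q7 :=
  ⟨⟨nrefl r, nrefl r, nrefl_sq r hr, nrefl_sq r hr⟩, fun u _ => nrefl_Q r u hr⟩

/-! ### computation with coded vectors -/

/-- position of a coordinate -/
def pos7 : I7 → ℕ
  | .inl () => 1
  | .inr (.inl 0) => 4
  | .inr (.inl 1) => 16
  | .inr (.inl 2) => 64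
  | .inr (.inr 0) => 256
  | .inr (.inr 1) => 1024
  | .inr (.inr 2) => 4096

/-- the vector of a code -/
def vec (c : ℕ) : I7 → ZMod 3 := fun i => ((c / pos7 i % 4 : ℕ) : ZMod 3)

/-- digits of the code `c`: one step with the vector of code `r` -/
def stp (r c : ℕ) : ℕ :=
  let b := 2 * (c % 4) * (r % 4) + (c / 4 % 4) * (r / 256 % 4) + (c / 16 % 4) * (r / 1024 % 4) +
    (c / 64 % 4) * (r / 4096 % 4) + (c / 256 % 4) * (r / 4 % 4) + (c / 1024 % 4) * (r / 16 % 4) +
    (c / 4096 % 4) * (r / 64 % 4)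
  (2 * (c % 4) + 2 * b * (r % 4)) % 3 + 4 * ((2 * (c / 4 % 4) + 2 * b * (r / 4 % 4)) % 3) +
    16 * ((2 * (c / 16 % 4) + 2 * b * (r / 16 % 4)) % 3) + 64 * ((2 * (c / 64 % 4) + 2 * b * (r / 64 % 4)) % 3) +
    256 * ((2 * (c / 256 % 4) + 2 * b * (r / 256 % 4)) % 3) + 1024 * ((2 * (c / 1024 % 4) + 2 * b * (r / 1024 % 4)) % 3) +
    4096 * ((2 * (c / 4096 % 4) + 2 * b * (r / 4096 % 4)) % 3)

theorem dig (e0 e1 e2 e3 e4 e5 e6 : ℕ) (h0 : e0 < 3) (h1 : e1 < 3) (h2 : e2 < 3) (h3 : e3 < 3) (h4 : e4 < 3)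
    (h5 : e5 < 3) (h6 : e6 < 3) (i : I7) :
    (e0 + 4 * e1 + 16 * e2 + 64 * e3 + 256 * e4 + 1024 * e5 + 4096 * e6) / pos7 i % 4 =
      match i with
      | .inl () => e0
      | .inr (.inl 0) => e1
      | .inr (.inl 1) => e2
      | .inr (.inl 2) => e3
      | .inr (.inr 0) => e4
      | .inr (.inr 1) => e5
      | .inr (.inr 2) => e6 := by
  rcases i with ⟨⟨⟩⟩ | i | i
  · show (_ / 1) % 4 = e0
    omega
  · fin_cases i
    · show (_ / 4) % 4 = e1
      omega
    · show (_ / 16) % 4 = e2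
      omega
    · show (_ / 64) % 4 = e3
      omega
  · fin_cases i
    · show (_ / 256) % 4 = e4
      omega
    · show (_ / 1024) % 4 = e5
      omega
    · show (_ / 4096) % 4 = e6
      omega

theorem vec_stp (r c : ℕ) : vec (stp r c) = nrefl (vec r) *ᵥ vec c := by
  rw [nrefl_mulVec]
  funext i
  have hm : ∀ x, x % 3 < 3 := fun x => Nat.mod_lt _ (by norm_num)
  show (((stp r c) / pos7 i % 4 : ℕ) : ZMod 3) = _
  rw [stp, dig _ _ _ _ _ _ _ (hm _) (hm _) (hm _) (hm _) (hm _) (hm _) (hm _)]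
  have h2 : ((2 : ℕ) : ZMod 3) = -1 := by decide
  have h2' : (2 : ZMod 3) = -1 := by decide
  rcases i with ⟨⟨⟩⟩ | i | i
  · simp only [ZMod.natCast_mod, vec, bil, pos7, Nat.cast_add, Nat.cast_mul, h2, h2', Nat.div_one]
    push_cast
    ring
  · fin_cases i <;>
    · simp only [ZMod.natCast_mod, vec, bil, pos7, Nat.cast_add, Nat.cast_mul, h2, h2', Nat.div_one, Fin.zero_eta, Fin.mk_one,
        Fin.reduceFinMk]
      push_cast
      ring
  · fin_cases i <;>
    · simp only [ZMod.natCast_mod, vec, bil, pos7, Nat.cast_add, Nat.cast_mul, h2, h2', Nat.div_one, Fin.zero_eta, Fin.mk_one,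
        Fin.reduceFinMk]
      push_cast
      ring

/-! ### the homomorphism -/

/-- codes of the roots of the letters -/
def rt (x : ℕ) : ℕ :=
  match x with
  | 1 => 8256
  | 2 => 9280
  | 3 => 2064
  | 4 => 1041
  | 5 => 5185
  | 6 => 2465
  | 7 => 4418
  | _ => 8840

theorem rt_Q (x : ℕ) (hx : isLet 8 x = true) : Q7 (vec (rt x)) = -1 := by
  rw [isLet_iff] at hx
  rw [Q7_eq]
  match x, hx with
  | 1, _ => decide
  | 2, _ => decide
  | 3, _ => decide
  | 4, _ => decide
  | 5, _ => decide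
  | 6, _ => decide
  | 7, _ => decide
  | 8, _ => decide
  | (n + 9), h => omega

/-- the isometries of the letters -/
def oh (x : ℕ) : isometryGroup (ZMod 3) Q7 :=
  if hx : isLet 8 x = true then nr (vec (rt x)) (rt_Q x hx) else 1

/-- the matrix of an isometry -/
def mt (a : isometryGroup (ZMod 3) Q7) : Matrix I7 I7 (ZMod 3) := ((a : Matrix.GeneralLinearGroup I7 (ZMod 3)) : Matrix I7 I7 (ZMod 3))

theorem mt_mul (a b : isometryGroup (ZMod 3) Q7) : mt (a * b) = mt a * mt b := rfl

theorem mt_one : mt 1 = 1 := rfl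

theorem mt_inj {a b : isometryGroup (ZMod 3) Q7} (h : mt a = mt b) : a = b :=
  Subtype.ext (Units.ext h)

theorem mt_oh {x : ℕ} (hx : isLet 8 x = true) : mt (oh x) = nrefl (vec (rt x)) := by
  rw [oh, dif_pos hx]
  rfl

/-- the action of a word, the first letter first -/
noncomputable def runW : List ℕ → ℕ → ℕ
  | [], c => c
  | x :: u, c => forceN (stp (rt x) c) (runW u)

theorem runW_sound (u : List ℕ) (hu : wOK 8 u = true) : ∀ c, mt ((u.reverse.map oh).prod) *ᵥ vec c = vec (runW u c) := by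
  induction u with
  | nil => intro c; simp [mt_one, runW]
  | cons x u ih =>
    intro c
    simp only [wOK, List.all_cons, Bool.and_eq_true] at hu
    rw [List.reverse_cons, List.map_append, List.prod_append, mt_mul, ← Matrix.mulVec_mulVec]
    have h1 : mt (([x].map oh).prod) = nrefl (vec (rt x)) := by
      rw [List.map_singleton, List.prod_singleton, mt_oh hu.1]
    rw [h1, ← vec_stp, ih hu.2, runW, forceN_eq]

theorem vec_single (j : I7) : vec (pos7 j) = Pi.single j 1 := by
  funext i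
  revert i j
  decide

/-- test of a relation -/
noncomputable def relB (p : List ℕ × ℕ) : Bool :=
  wOK 8 (expand p) && [1, 4, 16, 64, 256, 1024, 4096].all fun c => Nat.beq (runW (expand p) c) c

theorem prod_expand7 {G : Type*} [Group G] (g : ℕ → G) (p : List ℕ × ℕ) : ((expand p).map g).prod = ((p.1.map g).prod) ^ p.2 := by
  rw [expand, List.map_flatten, List.map_replicate, List.prod_flatten, List.map_replicate, List.prod_replicate]

theorem oh_sq (x : ℕ) : oh x * oh x = 1 := by
  by_cases hx : isLet 8 x = true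
  · apply mt_inj
    rw [mt_mul, mt_oh hx, mt_one]
    exact nrefl_sq _ (rt_Q x hx)
  · rw [oh, dif_neg hx, one_mul]

theorem oh_good : Good oh 8 Fi22T8.iv Fi22T8.RL where
  inv x := by
    show oh (ivL [] x) = (oh x)⁻¹
    rw [eq_inv_iff_mul_eq_one]
    exact oh_sq x
  one x hx := by
    rw [oh, dif_neg (by rw [hx]; decide)]
  rel p hp := by
    have h0 : Fi22T8.RL.all relB = true := by decide +kernel
    have h1 : relB p = true := List.all_eq_true.1 h0 p hp
    rw [relB, Bool.and_eq_true] at h1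
    obtain ⟨h1, h2⟩ := h1
    rw [← prod_expand7]
    have hinv : ∀ x, oh (ivL [] x) = (oh x)⁻¹ := by
      intro x
      rw [eq_inv_iff_mul_eq_one]
      exact oh_sq x
    have h3 : (((expand p).reverse).map oh).prod = 1 := by
      apply mt_inj
      rw [mt_one]
      apply Matrix.ext_of_mulVec_single
      intro j
      rw [← vec_single, runW_sound _ h1, Matrix.one_mulVec]
      congr 1
      have h4 : ∀ c ∈ [1, 4, 16, 64, 256, 1024, 4096], runW (expand p) c = c := by
        intro c hc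
        exact Nat.eq_of_beq_eq_true (List.all_eq_true.1 h2 c hc)
      apply h4
      revert j
      decide
    have h5 := prod_reverse hinv (fun _ => rfl) (expand p)
    rw [h3] at h5
    exact inv_eq_one.1 h5.symm

theorem perfect8 : commutator Q8 = ⊤ := perfect_of U8.good U8.top (lets := Fi22T8.lets) Fi22K2.cert

theorem o73_iso : Nonempty (Q8 ≃* POmega (ZMod 3) (quadFormOdd 3 (ZMod 3))) := by
  haveI := simple8
  obtain ⟨θ, hθ⟩ := U8.univ (isometryGroup (ZMod 3) Q7) oh oh_good
  have hθi : Function.Injective θ := by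
    rw [← MonoidHom.ker_eq_bot_iff]
    rcases (IsSimpleGroup.eq_bot_or_eq_top_of_normal θ.ker inferInstance) with h | h
    · exact h
    · exfalso
      have h1 : θ (q8 1) = 1 := by
        rw [← MonoidHom.mem_ker, h]
        exact Subgroup.mem_top _
      rw [hθ] at h1
      have h2 : mt (oh 1) (.inl ()) (.inl ()) = 1 := by rw [h1]; rfl
      rw [mt_oh rfl] at h2
      revert h2
      decide
  have hr : ∀ x, θ x ∈ Omega (ZMod 3) Q7 := by
    intro x
    have h1 : x ∈ commutator Q8 := by rw [perfect8]; exact Subgroup.mem_top _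
    have h2 : θ x ∈ (commutator Q8).map θ := Subgroup.mem_map_of_mem _ h1
    rw [commutator_def, Subgroup.map_commutator] at h2
    exact Subgroup.commutator_mono le_top le_top h2
  let θ' : Q8 →* Omega (ZMod 3) Q7 := θ.codRestrict _ hr
  have hθ' : Function.Injective θ' := by
    intro a b hab
    exact hθi (congrArg Subtype.val hab)
  let ψ : Q8 →* POmega (ZMod 3) Q7 := (QuotientGroup.mk' (Subgroup.center (Omega (ZMod 3) Q7))).comp θ'
  have hψ : Function.Injective ψ := by
    rw [← MonoidHom.ker_eq_bot_iff]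
    rcases (IsSimpleGroup.eq_bot_or_eq_top_of_normal ψ.ker inferInstance) with h | h
    · exact h
    · exfalso
      have h1 : ∀ x, θ' x ∈ Subgroup.center (Omega (ZMod 3) Q7) := by
        intro x
        have h2 : x ∈ ψ.ker := by rw [h]; exact Subgroup.mem_top _
        rw [MonoidHom.mem_ker] at h2
        exact (QuotientGroup.eq_one_iff _).1 h2
      have h3 : commutator Q8 = ⊥ := by
        rw [commutator_eq_bot_iff_center_eq_top, eq_top_iff]
        intro x _
        rw [Subgroup.mem_center_iff]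
        intro y
        apply hθ'
        rw [map_mul, map_mul]
        exact Subgroup.mem_center_iff.1 (h1 x) _
      rw [perfect8] at h3
      exact absurd h3 top_ne_bot
  have hc : Nat.card (POmega (ZMod 3) Q7) = Nat.card Q8 := by
    have h1 := Cfsg.Agent.S0292.result (F := ZMod 3) (q := 3) (ZMod.card 3) (by decide) 3 le_rfl
    rw [card8]
    have h2 : 3 ^ (3 ^ 2) * ∏ i ∈ Finset.range 3, (3 ^ (2 * (i + 1)) - 1) = 2 * 4585351680 := by
      simp [Finset.prod_range_succ]
    rw [h2] at h1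
    exact Nat.eq_of_mul_eq_mul_left (by norm_num) h1
  haveI : Finite (POmega (ZMod 3) Q7) := Nat.finite_of_card_ne_zero (by rw [hc, card8]; norm_num)
  exact ⟨MulEquiv.ofBijective ψ (hψ.bijective_of_nat_card_le hc.le)⟩

end Cfsg.Agent.CosetEnum.Fi22
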